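import Mathlib
import Cfsg.Agent.Lib.Tuan.Deg
import Cfsg.Agent.Lib.CharDeep.Tools
import Cfsg.Agent.Lib.Invol.SylowElem
import Cfsg.Agent.Lib.TwoGrp.Pres
import Cfsg.Agent.Lib.DihSyl.Klein
import Cfsg.Agent.Lib.PSL2Rec.Basic
import Cfsg.Agent.S0948
import Cfsg.Agent.S0992

/-!
Simple groups of order `4 p ^ a q ^ b`.
-/

set_option autoImplicit false
set_option linter.unusedSectionVars false

namespace CfsgLib.Tuan

open Cfsg CfsgLib.Char CfsgLib.Block CfsgLib.Invol CfsgLib.TwoGrp Subgroup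
open scoped ComplexConjugate

open Classical in
theorem card_fib_dvd {H : Type*} [Group H] [Fintype H] (P : Sylow 2 H) (hP : IsKleinFour (P : Subgroup H))
    (hN : HasNormalPComplement 2 H) {t : H} (ht : t ∈ (P : Subgroup H)) (ht1 : t ≠ 1)
    (hc : ∀ g, g * t = t * g) :
    (Finset.univ.filter fun x : H × H => orderOf x.1 = 2 ∧ orderOf x.2 = 2 ∧
      Odd (orderOf (t * (x.1 * x.2)))).card ∣ 2 * (Nat.card H * Nat.card H) := by
  obtain ⟨Q, N, hN, hNQ⟩ := hN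
  obtain ⟨h1, h2⟩ := odd_of_isComplement' Q hNQ
  have h3 : Nat.card (H ⧸ N) = 2 ^ 2 := by
    rw [← index_eq_card, hNQ.symm.index_eq_card, Q.card_eq_multiplicity, ← P.card_eq_multiplicity,
      hP.card_four]; rfl
  have h4 := (IsPGroup.isMulCommutative_of_card_eq_prime_sq h3).is_comm.comm
  have hπ : ∀ {a b : H}, IsConj a b → (a : H ⧸ N) = b := fun {a b} h => by
    obtain ⟨c, rfl⟩ := isConj_iff.1 h
    rw [QuotientGroup.mk_mul, QuotientGroup.mk_mul, h4 c, QuotientGroup.mk_inv, mul_inv_cancel_right]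
  have hinj : ∀ {a b : H}, a ∈ (P : Subgroup H) → b ∈ (P : Subgroup H) → (a : H ⧸ N) = b → a = b := by
    intro a b ha hb h
    by_contra h5
    have := odd_orderOf_of_mem h1 (QuotientGroup.eq.1 h)
    rw [orderOf_eq_two (fun h6 => h5 (inv_mul_eq_one.1 h6))
      (mul_self_of_isKleinFour hP (mul_mem (inv_mem ha) hb))] at this
    exact absurd this (by decide)
  obtain ⟨a, ha, ha1, hat⟩ : ∃ a ∈ (P : Subgroup H), a ≠ 1 ∧ t ≠ a := by
    obtain ⟨a, b, ha, hb, ha1, hb1, hab⟩ := exists_gens_of_isKleinFour hP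
    by_cases h : t = a
    · exact ⟨b, hb, hb1, h ▸ hab⟩
    · exact ⟨a, ha, ha1, h⟩
  have hmem := mem_iff_of_isKleinFour hP ht ha ht1 ha1 hat
  have htt := mul_self_of_isKleinFour hP ht
  have haa := mul_self_of_isKleinFour hP ha
  have hb := mul_mem ht ha
  have hb1 : t * a ≠ 1 := fun h => hat (mul_left_cancel (htt.trans h.symm))
  have hab : a * (t * a) = t := by rw [← hc, ← mul_assoc, haa, one_mul]
  have hba : t * a * a = t := by rw [mul_assoc, haa, mul_one]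
  have key : ∀ {u v s s' : H}, u ∈ (P : Subgroup H) → v ∈ (P : Subgroup H) → IsConj u s → IsConj v s' →
      (Odd (orderOf (t * (s * s'))) ↔ u * v = t) := fun {u v s s'} hu hv h5 h6 => by
    have h7 : ((u * v : H) : H ⧸ N) = t ↔ t * (s * s') ∈ N := by
      rw [QuotientGroup.mk_mul, hπ h5, hπ h6, ← QuotientGroup.mk_mul, eq_comm, QuotientGroup.eq,
        inv_eq_of_mul_eq_one_right htt]
    exact ⟨fun h => hinj (mul_mem hu hv) ht (h7.2 (h2 _ h)),
      fun h => odd_orderOf_of_mem h1 (h7.1 (congrArg _ h))⟩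
  have hcl : ∀ u : H, (Finset.univ.filter (IsConj u ·)).card ∣ Nat.card H := fun u => by
    rw [← Fintype.card_subtype, ← Nat.card_eq_fintype_card, CfsgLib.PSL2Rec.card_class_eq_index]
    exact index_dvd_card _
  have : (Finset.univ.filter fun x : H × H => orderOf x.1 = 2 ∧ orderOf x.2 = 2 ∧
      Odd (orderOf (t * (x.1 * x.2)))) =
      Finset.univ.filter (IsConj a ·) ×ˢ Finset.univ.filter (IsConj (t * a) ·) ∪
      Finset.univ.filter (IsConj (t * a) ·) ×ˢ Finset.univ.filter (IsConj a ·) := by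
    ext ⟨s, s'⟩
    simp only [Finset.mem_filter, Finset.mem_univ, true_and, Finset.mem_union, Finset.mem_product]
    have o1 := orderOf_eq_two ha1 haa
    have o2 := orderOf_eq_two hb1 (mul_self_of_isKleinFour hP hb)
    constructor
    · rintro ⟨h5, h6, h7⟩
      have h8 : ∀ s : H, orderOf s = 2 → ∃ u ∈ (P : Subgroup H), u ≠ 1 ∧ IsConj u s := fun s hs => by
        obtain ⟨g, hg⟩ := exists_conj_mem_sylow P ⟨1, hs⟩
        exact ⟨_, hg, ne_one_of_orderOf_two (by rw [orderOf_conj, hs]), (isConj_iff.2 ⟨g, rfl⟩).symm⟩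
      obtain ⟨u, hu, hu1, hu2⟩ := h8 s h5
      obtain ⟨v, hv, hv1, hv2⟩ := h8 s' h6
      have h9 := (key hu hv hu2 hv2).1 h7
      rcases (hmem u).1 hu with rfl | rfl | rfl | rfl
      · exact absurd rfl hu1
      · exact absurd (mul_eq_left.1 h9) hv1
      · exact Or.inl ⟨hu2, mul_left_cancel (h9.trans hab.symm) ▸ hv2⟩
      · exact Or.inr ⟨hu2, mul_left_cancel (h9.trans hba.symm) ▸ hv2⟩
    · rintro (⟨h5, h6⟩ | ⟨h5, h6⟩)
      · exact ⟨orderOf_eq_of_isConj h5 ▸ o1, orderOf_eq_of_isConj h6 ▸ o2, (key ha hb h5 h6).2 hab⟩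
      · exact ⟨orderOf_eq_of_isConj h5 ▸ o2, orderOf_eq_of_isConj h6 ▸ o1, (key hb ha h5 h6).2 hba⟩
  rw [this, Finset.card_union_of_disjoint, Finset.card_product, Finset.card_product, mul_comm, ← two_mul]
  · exact Nat.mul_dvd_mul_left 2 (mul_dvd_mul (hcl _) (hcl _))
  · rw [Finset.disjoint_left]
    intro x h5 h6
    have := hinj ha hb (hπ ((Finset.mem_filter.1 (Finset.mem_product.1 h5).1).2.trans
      (Finset.mem_filter.1 (Finset.mem_product.1 h6).1).2.symm))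
    exact ht1 (mul_eq_right.1 this.symm)

variable {G : Type*} [Group G] [Finite G]

open Classical in
theorem card_fib_dvd' [Fintype G] (P : Sylow 2 G) (hP : IsKleinFour (P : Subgroup G)) {t : G}
    (ht : t ∈ (P : Subgroup G)) (ht2 : orderOf t = 2) :
    (Finset.univ.filter fun x : G × G => orderOf x.1 = 2 ∧ orderOf x.2 = 2 ∧
      IsPPart 2 (x.1 * x.2) t).card ∣ 2 * (Nat.card G * Nat.card G) := by
  have hF := fourOmega_of_isKleinFour _ hP
  have ht1 := ne_one_of_orderOf_two ht2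
  have htt := mul_self_of_orderOf_two ht2
  set C := CfsgLib.BrPair.Ce t
  have hC : ∀ {g}, g ∈ C ↔ g * t = t * g := mem_centralizer_singleton_iff
  have h1 := card_fib_dvd (P.subtype (hF.le_Ce ht)) (by
      have e := subgroupOfEquivOfLe (hF.le_Ce ht)
      exact ⟨(Nat.card_congr e.toEquiv).trans hP.card_four,
        (Monoid.exponent_eq_of_mulEquiv e).trans hP.exponent_two⟩)
    (hF.hasNormalPComplement_Ce P ht ht1) (t := ⟨t, hC.2 rfl⟩) ht (fun h => ht1 (congrArg Subtype.val h))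
    fun g => Subtype.ext (hC.1 g.2)
  refine dvd_trans (dvd_of_eq ?_) (h1.trans (Nat.mul_dvd_mul_left 2
    (mul_dvd_mul (card_subgroup_dvd_card C) (card_subgroup_dvd_card C))))
  symm
  refine Finset.card_bij (fun x _ => (x.1, x.2)) (fun x hx => ?_) (fun x _ y _ h => ?_) fun x hx => ?_
  · obtain ⟨h2, h3, h4⟩ := (Finset.mem_filter.1 hx).2
    refine Finset.mem_filter.2 ⟨Finset.mem_univ _, by rw [orderOf_coe, h2], by rw [orderOf_coe, h3],
      t * (x.1 * x.2), by rw [← mul_assoc, htt, one_mul], (Commute.refl t).mul_right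
        (Commute.mul_right (hC.1 x.1.2).symm (hC.1 x.2.2).symm), ⟨1, ht2⟩, ?_⟩
    rw [← orderOf_coe] at h4
    rwa [← even_iff_two_dvd, Nat.not_even_iff_odd]
  · exact Prod.ext (Subtype.ext (congrArg Prod.fst h)) (Subtype.ext (congrArg Prod.snd h))
  · obtain ⟨h2, h3, h4⟩ := (Finset.mem_filter.1 hx).2
    obtain ⟨k, hk⟩ := isPPart_mem_zpowers Nat.prime_two h4
    have h5 := conj_mul_eq_inv (mul_self_of_orderOf_two h2) (mul_self_of_orderOf_two h3)
    have h6 := conj_zpow_of_inverts h5 k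
    simp only at hk
    rw [zpow_neg, hk, inv_of_orderOf_two ht2, mul_inv_eq_iff_eq_mul] at h6
    have h7 : x.2 ∈ C := by
      have := mul_mem (inv_mem (hC.2 h6)) (hC.2 (isPPart_commute Nat.prime_two h4))
      rwa [inv_mul_cancel_left] at this
    refine ⟨(⟨x.1, hC.2 h6⟩, ⟨x.2, h7⟩), Finset.mem_filter.2 ⟨Finset.mem_univ _,
      by rw [orderOf_mk, h2], by rw [orderOf_mk, h3], ?_⟩, rfl⟩
    obtain ⟨y, hy, -, -, hy'⟩ := h4
    rw [← orderOf_coe]
    change Odd (orderOf (t * (x.1 * x.2)))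
    rwa [← hy, ← mul_assoc, htt, one_mul, ← Nat.not_even_iff_odd, even_iff_two_dvd]

theorem arith_three {p q : ℕ} (hp : p.Prime) (hq : q.Prime) (hpq : p ≠ q) (hp2 : p ≠ 2) (hq2 : q ≠ 2)
    {x y z : ℤ} (h : 1 + x + y + z = 0)
    (hx : x = -3 ∨ ((p : ℤ) ∣ x ∧ (q : ℤ) ∣ x + 1) ∨ ((q : ℤ) ∣ x ∧ (p : ℤ) ∣ x + 1))
    (hy : y = -3 ∨ ((p : ℤ) ∣ y ∧ (q : ℤ) ∣ y + 1) ∨ ((q : ℤ) ∣ y ∧ (p : ℤ) ∣ y + 1))
    (hz : z = -3 ∨ ((p : ℤ) ∣ z ∧ (q : ℤ) ∣ z + 1) ∨ ((q : ℤ) ∣ z ∧ (p : ℤ) ∣ z + 1))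
    (hx0 : 0 < x) : x = 5 ∧ z = -3 := by
  have k1 : ∀ {r : ℕ}, r.Prime → ¬ (r : ℤ) ∣ 1 := fun hr h =>
    hr.ne_one (Nat.dvd_one.1 (Int.natCast_dvd_natCast.1 h))
  have k2 : ∀ {r : ℕ}, r.Prime → r ≠ 2 → ¬ (r : ℤ) ∣ 2 := fun hr h2 h =>
    h2 ((Nat.prime_dvd_prime_iff_eq hr Nat.prime_two).1 (Int.natCast_dvd_natCast.1 h))
  have k3 : (p : ℤ) ∣ 3 → (q : ℤ) ∣ 3 → False := fun h1 h2 =>
    hpq (((Nat.prime_dvd_prime_iff_eq hp Nat.prime_three).1 (Int.natCast_dvd_natCast.1 h1)).trans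
      ((Nat.prime_dvd_prime_iff_eq hq Nat.prime_three).1 (Int.natCast_dvd_natCast.1 h2)).symm)
  have s0 : ∀ {r a b c : ℤ}, r ∣ a → r ∣ b → r ∣ c → ∀ {s n : ℤ}, n = s * (a + b + c) → r ∣ n :=
    fun ha hb hc _ _ hn => hn ▸ (dvd_add (dvd_add ha hb) hc).mul_left _
  have s1 : ∀ {r a b : ℤ}, r ∣ a → r ∣ b → ∀ {n : ℤ}, n = a + b → r ∣ n :=
    fun ha hb _ hn => hn ▸ dvd_add ha hb
  rcases hx with rfl | ⟨a1, a2⟩ | ⟨a2, a1⟩
  · omega
  all_goals
    rcases hy with rfl | ⟨b1, b2⟩ | ⟨b2, b1⟩ <;> rcases hz with rfl | ⟨c1, c2⟩ | ⟨c2, c1⟩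
  all_goals first
    | omega
    | exact (k2 hp hp2 (s1 a1 c1 (by omega))).elim
    | exact (k2 hq hq2 (s1 a2 c2 (by omega))).elim
    | exact (k2 hp hp2 (s1 a1 b1 (by omega))).elim
    | exact (k2 hq hq2 (s1 a2 b2 (by omega))).elim
    | exact (k3 (s1 a1 c1 (by omega)) (s1 a2 c2 (by omega))).elim
    | exact (k3 (s1 a1 b1 (by omega)) (s1 a2 b2 (by omega))).elim
    | exact (k1 hp (s0 a1 b1 c1 (s := 1) (by omega))).elim
    | exact (k1 hp (s0 a1 b1 c1 (s := -1) (by omega))).elim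
    | exact (k1 hq (s0 a2 b2 c2 (s := 1) (by omega))).elim
    | exact (k1 hq (s0 a2 b2 c2 (s := -1) (by omega))).elim

theorem arith_type {p q n : ℕ} (hn : ∀ r : ℕ, r.Prime → r ≠ 2 → (r : ℤ) ∣ n → r = p ∨ r = q) {x : ℤ}
    (h4 : 4 ∣ x - 1) (h1 : x ≠ 1) (hx : x ∣ n) (hx' : ∀ r : ℕ, r.Prime → r ≠ 2 → (r : ℤ) ∣ x + 1 → (r : ℤ) ∣ n) :
    x = -3 ∨ ((p : ℤ) ∣ x ∧ (q : ℤ) ∣ x + 1) ∨ ((q : ℤ) ∣ x ∧ (p : ℤ) ∣ x + 1) := by
  by_cases h3 : x = -3
  · exact Or.inl h3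
  right
  obtain ⟨k, hk⟩ := h4
  obtain ⟨r, hr, hr1⟩ := Nat.exists_prime_and_dvd (n := x.natAbs) (by omega)
  obtain ⟨s, hs, hs1⟩ := Nat.exists_prime_and_dvd (n := (2 * k + 1).natAbs) (by omega)
  rw [← Int.natCast_dvd] at hr1 hs1
  have hs2 : (s : ℤ) ∣ x + 1 := (by omega : 2 * (2 * k + 1) = x + 1) ▸ hs1.mul_left 2
  have hrs : r ≠ s := by
    rintro rfl
    exact hr.ne_one (Nat.dvd_one.1 (Int.natCast_dvd_natCast.1 ((dvd_add_right hr1).1 hs2)))
  have hs3 : s ≠ 2 := by rintro rfl; omega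
  rcases hn r hr (by rintro rfl; omega) (hr1.trans hx) with rfl | rfl <;>
    rcases hn s hs hs3 (hx' s hs hs3 hs2) with rfl | rfl
  exacts [absurd rfl hrs, Or.inl ⟨hr1, hs2⟩, Or.inr ⟨hr1, hs2⟩, absurd rfl hrs]

theorem card_eq_sixty [IsSimpleGroup G] (hna : ∃ a b : G, a * b ≠ b * a) {p q a b : ℕ} (hp : p.Prime)
    (hq : q.Prime) (hpq : p ≠ q) (hp2 : p ≠ 2) (hq2 : q ≠ 2) (hG : Nat.card G = 4 * p ^ a * q ^ b) :
    Nat.card G = 60 := by
  classical
  have := Fintype.ofFinite G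
  have hodd : Odd (p ^ a * q ^ b) := (hp.odd_of_ne_two hp2).pow.mul (hq.odd_of_ne_two hq2).pow
  rw [mul_assoc] at hG
  obtain ⟨P⟩ : Nonempty (Sylow 2 G) := inferInstance
  obtain ⟨hP, h3⟩ := Cfsg.Agent.S0992.result (G := G) (fun h => by
    obtain ⟨a, b, hab⟩ := hna; exact hab (h.is_comm.comm a b)) (by grind) (by grind) P
  have hF := fourOmega_of_isKleinFour _ hP
  have hone : ∀ s t : G, orderOf s = 2 → orderOf t = 2 → IsConj s t := fun s t hs ht => by
    obtain ⟨g, hg⟩ := exists_conj_mem_sylow P ⟨1, hs⟩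
    obtain ⟨k, hk⟩ := exists_conj_mem_sylow P ⟨1, ht⟩
    obtain ⟨n, -, hn⟩ := hF.exists_conj P h3 hk hg (by rw [orderOf_conj, ht]) (by rw [orderOf_conj, hs])
    exact (isConj_iff.2 ⟨g, rfl⟩).trans ((isConj_iff.2 ⟨n, hn⟩).trans (isConj_iff.2 ⟨k, rfl⟩).symm)
  obtain ⟨M, hM⟩ := exists_isPModular' Nat.prime_two
  obtain ⟨χ₂, χ₃, χ₄, ε, hε, h21, h31, h23, h24, h34, hB, hval, d2, d3, d4, hdeg⟩ :=
    Cfsg.Agent.S0948.result M hM P hP hone
  obtain ⟨t, htP, ht⟩ := hF.exists_invol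
  obtain ⟨v2, v3, v4⟩ := hval t ht
  replace h21 := ne_one_iff.2 h21
  replace h31 := ne_one_iff.2 h31
  have h41 : χ₄ ≠ irrOne G := by rintro rfl; rw [irrOne_apply] at v4; norm_num at v4
  have hθ : ∀ g : G, 1 + (χ₂ : G → ℂ) g + ε * (χ₃ : G → ℂ) g - (χ₄ : G → ℂ) g =
      4 * ∑ z, classInd t z * if IsPPart 2 g z then 1 else 0 := fun g => by
    obtain ⟨u, hu⟩ := exists_isPPart Nat.prime_two g
    have h1 := hF.sum_principal hM P htP (ne_one_of_orderOf_two ht) hu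
    have h2 : Finset.univ.filter (· ∈ principalBlock M G) = {irrOne G, χ₂, χ₃, χ₄} := by
      ext χ
      simp only [hB, Finset.mem_filter, Finset.mem_univ, true_and, Set.mem_ofPred_eq, Finset.mem_insert,
        Finset.mem_singleton]
      rw [show χ = irrOne G ↔ (χ : G → ℂ) = fun _ => 1 from Subtype.ext_iff]
    rw [h2, Finset.sum_insert (by simp [h21.symm, h31.symm, h41.symm]), Finset.sum_insert (by simp [h23, h24]),
      Finset.sum_pair h34, v2, v3, v4, irrOne_apply, irrOne_apply, hP.card_four] at h1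
    rw [Finset.sum_eq_single u (fun z _ hz => by
      rw [if_neg fun h => hz (isPPart_unique Nat.prime_two h hu), mul_zero]) (by simp), if_pos hu, classInd]
    simp only [map_one, map_intCast, map_neg] at h1
    split_ifs at h1 ⊢ <;> (push_cast at h1; linear_combination h1)
  obtain ⟨c, hc⟩ := card_fib_dvd' P hP htP ht
  set A := (Finset.univ.filter fun x : G × G => orderOf x.1 = 2 ∧ orderOf x.2 = 2 ∧
      IsPPart 2 (x.1 * x.2) t).card with hA
  set n := (centralizer ({t} : Set G)).index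
  have hφ : IsClassFunction G fun z => ∑ x, ∑ y, classInd t x * classInd t y *
      if IsPPart 2 (x * y) z then (1 : ℂ) else 0 := by
    intro z g
    refine (Fintype.sum_equiv (MulAut.conj g).toEquiv _ _ fun x => Fintype.sum_equiv
      (MulAut.conj g).toEquiv _ _ fun y => ?_).symm
    have h1 : IsPPart 2 (x * y) z ↔ IsPPart 2 (g * x * g⁻¹ * (g * y * g⁻¹)) (g * z * g⁻¹) :=
      ⟨fun h => by simpa [mul_assoc] using isPPart_conj h g,
        fun h => by simpa [mul_assoc] using isPPart_conj h g⁻¹⟩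
    simp only [MulEquiv.toEquiv_eq_coe, EquivLike.coe_coe, MulAut.conj_apply, isClassFunction_classInd t _ g]
    rw [if_congr h1 rfl rfl]; congr
  have h1 := sum_classInd_mul t hφ
  have h2 : ∑ x, ∑ y, classInd t x * classInd t y * (if IsPPart 2 (x * y) t then (1 : ℂ) else 0) = A := by
    rw [hA, Finset.card_filter, Nat.cast_sum, Fintype.sum_prod_type]
    refine Finset.sum_congr rfl fun x _ => Finset.sum_congr rfl fun y _ => ?_
    have : ∀ x, IsConj x t ↔ orderOf x = 2 := fun x =>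
      ⟨fun h => (orderOf_eq_of_isConj h).trans ht, fun h => hone x t h ht⟩
    simp only [classInd, this, ite_and]
    split_ifs <;> simp
  have h4 : ∑ x, ∑ y, classInd t x * classInd t y * (1 + (χ₂ : G → ℂ) (x * y) + ε * (χ₃ : G → ℂ) (x * y) -
      (χ₄ : G → ℂ) (x * y)) = 4 * (n * A) := by
    rw [← h2, ← h1]
    simp only [hθ, Finset.mul_sum]
    rw [Finset.sum_comm]
    conv_lhs => enter [2, y]; rw [Finset.sum_comm]
    rw [Finset.sum_comm]
    refine Finset.sum_congr rfl fun z _ => ?_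
    rw [Finset.sum_comm]
    exact Finset.sum_congr rfl fun _ _ => Finset.sum_congr rfl fun _ _ => by ring
  have e1 := CfsgLib.CharDeep.sum_sum_classInd_irr_mul (irrOne G).2 t t
  have e2 := CfsgLib.CharDeep.sum_sum_classInd_irr_mul χ₂.2 t t
  have e3 := CfsgLib.CharDeep.sum_sum_classInd_irr_mul χ₃.2 t t
  have e4 := CfsgLib.CharDeep.sum_sum_classInd_irr_mul χ₄.2 t t
  simp only [irrOne_apply] at e1
  simp only [mul_add, mul_sub, mul_left_comm _ (ε : ℂ), Finset.sum_add_distrib, Finset.sum_sub_distrib,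
    ← Finset.mul_sum, e1, e2, e3, e4, v2, v3, v4, ← dg_cast] at h4
  have h5 := hdeg 1 (by simp)
  rw [← dg_cast, ← dg_cast, ← dg_cast] at h5
  have h6 : 1 + (dg χ₂ : ℤ) + ε * dg χ₃ + -dg χ₄ = 0 := by
    rw [← sub_eq_add_neg]; exact_mod_cast h5
  have h7 : (n : ℤ) * ((dg χ₂ + 1) * (ε * dg χ₃ + 1) * (-dg χ₄ + 1)) =
      -ε * 4 * A * (dg χ₂ * dg χ₃ * dg χ₄) := by
    have n0 : (n : ℂ) ≠ 0 := Nat.cast_ne_zero.2 index_ne_zero_of_finite
    have k2 : (dg χ₂ : ℂ) ≠ 0 := Nat.cast_ne_zero.2 (dg_pos _).ne'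
    have k3 : (dg χ₃ : ℂ) ≠ 0 := Nat.cast_ne_zero.2 (dg_pos _).ne'
    have k4 : (dg χ₄ : ℂ) ≠ 0 := Nat.cast_ne_zero.2 (dg_pos _).ne'
    change (n : ℂ) * n * _ + n * n * _ + ε * (n * n * _) - n * n * _ = _ at h4
    refine Int.cast_injective (α := ℂ) ?_
    push_cast
    field_simp at h4
    rw [(by linear_combination -h5 : (dg χ₄ : ℂ) = 1 + dg χ₂ + ε * dg χ₃)] at h4 ⊢
    rcases hε with rfl | rfl <;> push_cast at h4 ⊢
    · linear_combination -h4
    · linear_combination h4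
  have h8 : ∀ r : ℕ, r.Prime → r ≠ 2 → (r : ℤ) ∣ (dg χ₂ + 1) * (ε * dg χ₃ + 1) * (-dg χ₄ + 1) →
      (r : ℤ) ∣ Nat.card G := fun r hr hr2 h => by
    have h9 := h.mul_left n
    rw [h7] at h9
    have h10 : r ∣ 4 * A * (dg χ₂ * dg χ₃ * dg χ₄) := by
      rw [← Int.natCast_dvd_natCast]
      rcases hε with rfl | rfl <;> simpa using h9
    have h11 : r ∣ 2 ^ 3 * Nat.card G ^ 5 := h10.trans (by
      rw [show 2 ^ 3 * Nat.card G ^ 5 = 4 * (2 * (Nat.card G * Nat.card G)) *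
        (Nat.card G * Nat.card G * Nat.card G) by ring]
      exact mul_dvd_mul (mul_dvd_mul_left 4 ⟨c, hc⟩)
        (mul_dvd_mul (mul_dvd_mul (dg_dvd _) (dg_dvd _)) (dg_dvd _)))
    exact Int.natCast_dvd_natCast.2 (hr.dvd_of_dvd_pow ((hr.dvd_mul.1 h11).resolve_left fun h12 =>
      hr2 ((Nat.prime_dvd_prime_iff_eq hr Nat.prime_two).1 (hr.dvd_of_dvd_pow h12))))
  have hn : ∀ r : ℕ, r.Prime → r ≠ 2 → (r : ℤ) ∣ Nat.card G → r = p ∨ r = q := fun r hr hr2 h => by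
    rw [Int.natCast_dvd_natCast, hG, hr.dvd_mul, hr.dvd_mul] at h
    rcases h with h | h | h
    · exact absurd ((Nat.prime_dvd_prime_iff_eq hr Nat.prime_two).1 (hr.dvd_of_dvd_pow (n := 2) h)) hr2
    · exact Or.inl ((Nat.prime_dvd_prime_iff_eq hr hp).1 (hr.dvd_of_dvd_pow h))
    · exact Or.inr ((Nat.prime_dvd_prime_iff_eq hr hq).1 (hr.dvd_of_dvd_pow h))
  have l2 := one_lt_dg hna h21
  have l3 := one_lt_dg hna h31
  have hd : ∀ χ : IrrCharacter G, (dg χ : ℤ) ∣ Nat.card G := fun χ => Int.natCast_dvd_natCast.2 (dg_dvd χ)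
  change 4 ∣ (dg χ₃ : ℤ) - ε at d3
  change 4 ∣ (dg χ₄ : ℤ) + 1 at d4
  obtain ⟨f2, f4⟩ := arith_three hp hq hpq hp2 hq2 h6
    (arith_type hn d2 (by omega) (hd _) fun r hr hr2 h => h8 r hr hr2 ((h.mul_right _).mul_right _))
    (arith_type hn (by rcases hε with rfl | rfl <;> omega) (by rcases hε with rfl | rfl <;> omega)
      (by rcases hε with rfl | rfl <;> simpa using hd _)
      fun r hr hr2 h => h8 r hr hr2 ((h.mul_left _).mul_right _))
    (arith_type hn (by omega) (by omega) (neg_dvd.2 (hd _)) fun r hr hr2 h => h8 r hr hr2 (h.mul_left _))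
    (by omega)
  have g5 := factorization_eq_one_of_prime hna Nat.prime_five (χ := χ₂) (by omega)
  have g3 := factorization_eq_one_of_prime hna Nat.prime_three (χ := χ₄) (by omega)
  have hf : ∀ r, r ≠ 2 → (Nat.card G).factorization r =
      (if p = r then a else 0) + if q = r then b else 0 := fun r hr => by
    rw [hG, Nat.factorization_mul (by norm_num) hodd.pos.ne', Nat.factorization_mul (pow_pos hp.pos a).ne'
      (pow_pos hq.pos b).ne', hp.factorization_pow, hq.factorization_pow, (by norm_num : 4 = 2 ^ 2),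
      Nat.prime_two.factorization_pow]
    simp [Finsupp.single_apply, hr.symm]
  rw [hf _ (by norm_num)] at g3 g5
  rw [hG]
  split_ifs at g3 g5 <;> first | omega | (subst_vars; simp_all)

end CfsgLib.Tuan
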